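import Mathlib
import Cfsg.Agent.Lib.Helper8.OFus.Defs
import Cfsg.Agent.Lib.Helper43.OFusion.Darboux

/-!
# Package DET0 of the S2720 / S2721 project

If the isometry `A` of odd order has no non-zero fixed vector, every similarity `t` commuting
with `A` has determinant `μ ^ (dim / 2)`: it is a similitude of the non-degenerate alternating
form `ω(x, y) = β((A - A⁻¹) x, y)`.
-/

set_option autoImplicit false

namespace Cfsg.Agent.Lib.Helper43.OFus

open Module Matrix
open Cfsg.Agent.Lib.Helper8.WallForm Cfsg.Agent.Lib.Helper8.OFus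
open Cfsg.Agent.Lib.Helper43.OFusion

universe u

theorem pkgDet0 : PkgDet0.{u} := by
  intro F _ _ V _ _ _ Q N A hS hfix t μ hμ ht hcomm
  classical
  have SA := hS.setup
  obtain ⟨β, hβ⟩ : ∃ β : LinearMap.BilinForm F V, β = QuadraticMap.polarBilin Q := ⟨_, rfl⟩
  rw [← hβ] at SA
  have hβapp : ∀ x y, β x y = Q (x + y) - Q x - Q y := fun x y => by
    rw [hβ]
    rfl
  have hnd : ∀ x, (∀ y, β x y = 0) → x = 0 := by
    rw [hβ]
    exact hS.nondeg.1
  have htβ : ∀ x y, β (t x) (t y) = μ * β x y := by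
    intro x y
    rw [hβapp, hβapp, ← map_add, ht, ht, ht]
    ring
  obtain ⟨D, hD⟩ : ∃ D : V →ₗ[F] V, D = A - A ^ (N - 1) := ⟨_, rfl⟩
  have hDapp : ∀ x, D x = A x - (A ^ (N - 1)) x := fun x => by
    rw [hD]
    rfl
  have htinv : ∀ x, t ((A ^ (N - 1)) x) = (A ^ (N - 1)) (t x) := by
    intro x
    have h1 : A (t ((A ^ (N - 1)) x)) = A ((A ^ (N - 1)) (t x)) := by
      rw [← hcomm, SA.right_inv, SA.right_inv]
    have h2 := congrArg (A ^ (N - 1)) h1
    rwa [SA.left_inv, SA.left_inv] at h2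
  have htD : ∀ x, t (D x) = D (t x) := by
    intro x
    rw [hDapp, hDapp, map_sub, hcomm, htinv]
  obtain ⟨ω, hω⟩ : ∃ ω : LinearMap.BilinForm F V, ω = β.comp D LinearMap.id := ⟨_, rfl⟩
  have hωapp : ∀ x y, ω x y = β (D x) y := fun x y => by
    rw [hω]
    rfl
  have hωalt : ∀ x, ω x x = 0 := by
    intro x
    rw [hωapp, hDapp, map_sub, LinearMap.sub_apply, SA.adj x x,
      SA.symm ((A ^ (N - 1)) x) x, sub_self]
  have hωnd : ∀ x, (∀ y, ω x y = 0) → x = 0 := by
    intro x hx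
    have h1 : D x = 0 := hnd _ (fun y => by
      rw [← hωapp]
      exact hx y)
    rw [hDapp, sub_eq_zero] at h1
    have h2 : A (A x) = x := by rw [h1, SA.right_inv]
    have h3 : A (A x - x) = -(A x - x) := by
      rw [map_sub, h2]
      abel
    have h4 := SA.neg_fix h3
    have h5 : A x - x = 0 := hfix _ h4
    exact hfix x (sub_eq_zero.mp h5)
  have hωt : ∀ x y, ω (t x) (t y) = μ * ω x y := by
    intro x y
    rw [hωapp, hωapp, ← htD, htβ]
  -- matrices
  obtain ⟨b, -⟩ : ∃ b : Basis (Fin (finrank F V)) F V, b = Module.finBasis F V := ⟨_, rfl⟩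
  obtain ⟨S, hSdef⟩ : ∃ S : Matrix (Fin (finrank F V)) (Fin (finrank F V)) F,
      S = LinearMap.BilinForm.toMatrix b ω := ⟨_, rfl⟩
  obtain ⟨C, hCdef⟩ : ∃ C : Matrix (Fin (finrank F V)) (Fin (finrank F V)) F,
      C = LinearMap.toMatrix b b t := ⟨_, rfl⟩
  have hSalt : ∀ v : Fin (finrank F V) → F, v ⬝ᵥ S *ᵥ v = 0 := by
    intro v
    rw [hSdef, LinearMap.BilinForm.dotProduct_toMatrix_mulVec, hωalt]
  have hSdet : IsUnit S.det := by
    rw [isUnit_iff_ne_zero, hSdef, ← LinearMap.BilinForm.nondegenerate_iff_det_ne_zero]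
    exact LinearMap.BilinForm.Nondegenerate.ofSeparatingLeft hωnd
  have hcomp : ω.comp t t = μ • ω := by
    apply LinearMap.ext₂
    intro x y
    rw [LinearMap.BilinForm.comp_apply, hωt, LinearMap.smul_apply, LinearMap.smul_apply,
      smul_eq_mul]
  have hCS : Cᵀ * S * C = μ • S := by
    rw [hCdef, hSdef, ← LinearMap.BilinForm.toMatrix_comp b b ω t t, hcomp, map_smul]
  have h := det_of_alt_similitude S C hSalt hSdet μ hCS
  rw [Fintype.card_fin] at h
  rw [← LinearMap.det_toMatrix b, ← hCdef, h]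

end Cfsg.Agent.Lib.Helper43.OFus
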