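import Mathlib
import Cfsg.Prelude.Def_LieTypeDatum
import Cfsg.Agent.Lib.Helper8.OFus.Asm
import Cfsg.Agent.Lib.Helper8.OFus.Inst
import Cfsg.Agent.Lib.Helper44.MinusInnDiag

/-!
# Class fusion for the minus type from the package `PkgM` alone

For `PΩ⁻`, the quotient `Inndiag / Inn` is cyclic of order two or four (helper44,
`minus_inndiag_inn`), and `PSO` has index two in `Inndiag`.  A similarity with non-square
multiplier and `det = μ ^ k` centralising the isometry `g` lies outside `PSO`, so its image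
generates `Inndiag / Inn`; hence the centraliser of `x` covers `Inndiag / Inn` and no element of
`C_SO(g)` outside `Ω` is needed.  The proof of `fusion_generic_cyc` follows helper8's
`fusion_generic` (`Cfsg.Agent.Lib.Helper8.OFus.Asm`), with the spinor part replaced.
-/

set_option autoImplicit false

namespace Cfsg.Agent.Lib.Helper43.OFus

open Matrix Module Subgroup
open Cfsg.Agent.Lib.Helper14 Cfsg.Agent.Lib.Helper44 Cfsg.Agent.Lib.Helper8.OFus

universe u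

/-- In a group with a cyclic quotient of order two or four, an element outside a subgroup of
index two containing the kernel generates the quotient. -/
theorem exists_pow_mul_mem_ker {D : Type*} [Group D] (n : ℕ) (hn : n = 2 ∨ n = 4)
    (φ : D →* Multiplicative (ZMod n)) (hφ : Function.Surjective φ)
    (ψ : D →* Multiplicative (ZMod 2)) (hker : φ.ker ≤ ψ.ker) (t : D) (ht : ψ t ≠ 1) (h : D) :
    ∃ j : ℕ, φ (h * t ^ j) = 1 := by
  have hφt : φ t ≠ 1 := by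
    intro h1
    exact ht (hker (MonoidHom.mem_ker.mpr h1))
  rcases hn with rfl | rfl
  · have key : ∀ a c : Multiplicative (ZMod 2), a ≠ 1 → ∃ j < 2, c * a ^ j = 1 := by decide
    obtain ⟨j, -, hj⟩ := key (φ t) (φ h) hφt
    exact ⟨j, by rw [map_mul, map_pow, hj]⟩
  · have hsq : ∀ a : Multiplicative (ZMod 2), a ^ 2 = 1 := by decide
    have hφt2 : φ t ≠ Multiplicative.ofAdd (2 : ZMod 4) := by
      intro h1
      obtain ⟨d, hd⟩ := hφ (Multiplicative.ofAdd (1 : ZMod 4))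
      have h3 : φ (t * (d ^ 2)⁻¹) = 1 := by
        rw [map_mul, map_inv, map_pow, hd, h1]
        decide
      have h4 := hker (MonoidHom.mem_ker.mpr h3)
      rw [MonoidHom.mem_ker, map_mul, map_inv, map_pow, hsq, inv_one, mul_one] at h4
      exact ht h4
    have key : ∀ a c : Multiplicative (ZMod 4), a ≠ 1 → a ≠ Multiplicative.ofAdd (2 : ZMod 4) →
        ∃ j < 4, c * a ^ j = 1 := by decide
    obtain ⟨j, -, hj⟩ := key (φ t) (φ h) hφt hφt2
    exact ⟨j, by rw [map_mul, map_pow, hj]⟩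

section main

variable {ι : Type} [Fintype ι] [DecidableEq ι] {F : Type u} [Field F] [Fintype F]

set_option maxHeartbeats 1600000 in
/-- The generic fusion theorem when `Inndiag / Inn` is cyclic of order two or four: only the
package `PkgM` is needed (no element of `C_SO(g)` outside `Ω`). -/
theorem fusion_generic_cyc (hM : PkgM.{u}) (h2 : (2 : F) ≠ 0)
    (Q : QuadraticForm F (ι → F))
    (hQ : (QuadraticMap.polarBilin Q).Nondegenerate) (Qf : (ι → F) → F) (hQf : ⇑Q = Qf)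
    (E : Submodule F (ι → F)) (hE : 3 ≤ finrank F E) (hE0 : ∀ x ∈ E, Q x = 0) (k : ℕ)
    (hk : Fintype.card ι = 2 * k) (P : Matrix ι ι F → Prop)
    (hP : ∀ (g : GL ι F) (c : F), c ≠ 0 → (∀ x, Qf ((g : Matrix ι ι F) *ᵥ x) = c * Qf x) →
      (P (g : Matrix ι ι F) ↔ (g : Matrix ι ι F).det = c ^ k))
    (D : Subgroup (MulAut (Cfsg.POmega F Qf)))
    (hD : D = Subgroup.closure {β : MulAut (Cfsg.POmega F Qf) | ∃ g : GL ι F,
        g ∈ Cfsg.Geo.quadSimilarityGroup (F := F) Qf ∧ P (g : Matrix ι ι F) ∧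
        Cfsg.IsInducedBySemilinearPOmega Qf g (RingEquiv.refl F) β})
    (n : ℕ) (hn : n = 2 ∨ n = 4) (φ : ↥D →* Multiplicative (ZMod n))
    (hφ : Function.Surjective φ)
    (hφker : φ.ker = (Cfsg.Inn (Cfsg.POmega F Qf)).subgroupOf D)
    (g₂ : Matrix ι ι F) (c : F) (hc : ¬ IsSquare c)
    (hg₂ : ∀ v, Qf (g₂ *ᵥ v) = c * Qf v)
    (x : MulAut (Cfsg.POmega F Qf)) (hx : x ∈ Cfsg.pgoAut F Qf) {r : ℕ} (hr : r.Prime)
    (hro : Odd r) (hrF : (r : F) ≠ 0) (hxr : orderOf x = r) :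
    (∀ y : MulAut (Cfsg.POmega F Qf),
      (Cfsg.IsConjUnder (Cfsg.Inn (Cfsg.POmega F Qf)) x y ↔ Cfsg.IsConjUnder D x y) ∧
      (Cfsg.IsConjUnder (Cfsg.psoAut F Qf) x y ↔ Cfsg.IsConjUnder D x y)) ∧
    (∀ y : MulAut (Cfsg.POmega F Qf),
      Cfsg.IsConjUnder (Cfsg.poAut F Qf) x y ↔ Cfsg.IsConjUnder (Cfsg.pgoAut F Qf) x y) := by
  subst hQf
  have hdim : 6 ≤ finrank F (ι → F) := by
    have := two_mul_finrank_le_of_ts hQ hE0
    omega
  have hne : ∃ v, Q v ≠ 0 := exists_quad_ne_zero Q hQ (by omega)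
  have hDeq : D = diagAut h2 Q hQ hne k hk :=
    hD.trans (closure_pred_eq_diagAut h2 Q hQ hne k hk P hP)
  subst hDeq
  have hc0 : c ≠ 0 := fun h => hc ⟨0, by simp [h]⟩
  -- lift `x` to an isometry of order `r`
  rw [pgoAut_eq_range] at hx
  obtain ⟨g₀, rfl⟩ := hx
  have hpow : simAut ⇑Q g₀ ^ r = 1 := by
    rw [← hxr]
    exact pow_orderOf_eq_one _
  obtain ⟨g, hgx, hgr⟩ := exists_isom_lift Q hQ E hE hE0 hne g₀ hro hpow
  obtain ⟨G, hG⟩ : ∃ G : Matrix ι ι F, G = ((g : GL ι F) : Matrix ι ι F) := ⟨_, rfl⟩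
  rw [← hG] at hgr
  have hGQ : ∀ v, Q (G *ᵥ v) = Q v := by
    rw [hG]
    exact isom_preserves g
  have hG1 : G ≠ 1 := by
    intro h1
    have h3 : simAut ⇑Q g₀ = 1 := by
      rw [← hgx]
      apply simAut_eq_one_of_scalar ⇑Q _ 1
      show ((g : GL ι F) : Matrix ι ι F) = _
      rw [← hG, h1, one_smul]
    rw [h3, orderOf_one] at hxr
    exact hr.one_lt.ne hxr
  obtain ⟨A, hA⟩ : ∃ A : (ι → F) →ₗ[F] (ι → F), A = Matrix.toLin' G := ⟨_, rfl⟩
  have hAapp : ∀ v, A v = G *ᵥ v := by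
    intro v
    rw [hA, Matrix.toLin'_apply]
  have hStd : Std Q r A :=
    { two := h2
      nondeg := hQ
      odd := hro
      ne := hrF
      pow := by
        apply LinearMap.ext
        intro v
        rw [hA, toLin_pow_apply, hgr, Matrix.one_mulVec, Module.End.one_apply]
      isom := fun v => by rw [hAapp]; exact hGQ v }
  have hA1 : A ≠ 1 := by
    intro h1
    apply hG1
    apply Matrix.toLin'.injective
    rw [← hA, h1, Matrix.toLin'_one]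
    rfl
  -- package M: a similarity with non-square multiplier and `det = μ^k` centralising `g`
  have hfin : finrank F (ι → F) = 2 * k := by
    rw [Module.finrank_fintype_fun_eq_card, hk]
  obtain ⟨s₂, hs₂⟩ := exists_sim Q hQ g₂ c hc0 hg₂
  have hinv1 : (((s₂ : GL ι F)⁻¹ : GL ι F) : Matrix ι ι F) * ((s₂ : GL ι F) : Matrix ι ι F) = 1 := by
    rw [← Units.val_mul, inv_mul_cancel, Units.val_one]
  have hinv2 : ((s₂ : GL ι F) : Matrix ι ι F) * (((s₂ : GL ι F)⁻¹ : GL ι F) : Matrix ι ι F) = 1 := by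
    rw [← Units.val_mul, mul_inv_cancel, Units.val_one]
  obtain ⟨t, htQ, htA, htdet⟩ := hM Q r A hStd ⟨k, by rw [hfin]; ring⟩
    (Matrix.toLin'OfInv hinv1 hinv2) c hc0 (fun v => by
      show Q (Matrix.toLin' ((s₂ : GL ι F) : Matrix ι ι F) v) = c * Q v
      rw [Matrix.toLin'_apply, hs₂]
      exact hg₂ v)
  obtain ⟨T₁m, hT₁m⟩ : ∃ T : Matrix ι ι F,
      T = LinearMap.toMatrix' (t : (ι → F) →ₗ[F] (ι → F)) := ⟨_, rfl⟩
  have hT₁app : ∀ v, T₁m *ᵥ v = t v := by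
    intro v
    rw [hT₁m, ← Matrix.toLin'_apply, Matrix.toLin'_toMatrix']
    rfl
  have hT₁Q : ∀ v, Q (T₁m *ᵥ v) = c * Q v := fun v => by
    rw [hT₁app]
    exact htQ v
  have hT₁det : T₁m.det = c ^ k := by
    rw [hT₁m, LinearMap.det_toMatrix', htdet, hfin, Nat.mul_div_cancel_left k (by norm_num)]
  have hT₁comm : T₁m * G = G * T₁m := by
    apply Matrix.toLin'.injective
    apply LinearMap.ext
    intro v
    rw [Matrix.toLin'_apply, Matrix.toLin'_apply, ← Matrix.mulVec_mulVec, ← Matrix.mulVec_mulVec,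
      hT₁app, hT₁app, ← hAapp, ← hAapp]
    exact htA v
  obtain ⟨T₁, hT₁⟩ := exists_sim Q hQ T₁m c hc0 hT₁Q
  have hT₁mult : (simMult ⇑Q T₁ : F) = c := by
    apply simMult_unique ⇑Q hne
    rw [hT₁]
    exact hT₁Q
  have hT₁mem : T₁ ∈ detKer h2 Q hQ hne k hk := by
    rw [mem_detKer_iff, hT₁mult, hT₁]
    exact hT₁det
  -- commuting automorphisms
  obtain ⟨gS, hgS⟩ : ∃ gS : ↥(Cfsg.Geo.quadSimilarityGroup (F := F) ⇑Q),
      gS = ⟨(g : GL ι F), isometryGroup_le_sim ⇑Q g.2⟩ := ⟨_, rfl⟩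
  have hgSmat : ((gS : GL ι F) : Matrix ι ι F) = G := by rw [hgS, hG]
  have hxS : simAut ⇑Q g₀ = simAut ⇑Q gS := by
    rw [hgS]
    exact hgx.symm
  have hcomm_of : ∀ T : ↥(Cfsg.Geo.quadSimilarityGroup (F := F) ⇑Q),
      ((T : GL ι F) : Matrix ι ι F) * G = G * ((T : GL ι F) : Matrix ι ι F) →
      simAut ⇑Q T * simAut ⇑Q g₀ = simAut ⇑Q g₀ * simAut ⇑Q T := by
    intro T hT
    rw [hxS, ← map_mul, ← map_mul]
    congr 1
    apply Subtype.ext
    apply Units.ext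
    rw [Subgroup.coe_mul, Subgroup.coe_mul, Units.val_mul, Units.val_mul, hgSmat]
    exact hT
  have hT₁c : simAut ⇑Q T₁ * simAut ⇑Q g₀ = simAut ⇑Q g₀ * simAut ⇑Q T₁ :=
    hcomm_of T₁ (by rw [hT₁]; exact hT₁comm)
  -- the centraliser covers `PGO / PO`
  have hcovO : ∀ h ∈ Cfsg.pgoAut F ⇑Q, ∃ cc : MulAut (Cfsg.POmega F ⇑Q),
      cc * simAut ⇑Q g₀ = simAut ⇑Q g₀ * cc ∧ h * cc ∈ Cfsg.poAut F ⇑Q := by
    intro h hh
    rw [pgoAut_eq_range] at hh
    obtain ⟨s, rfl⟩ := hh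
    by_cases hsq : IsSquare (simMult ⇑Q s : F)
    · obtain ⟨s', ν, -, -, -, he⟩ := exists_isom_of_sq Q hQ s hsq
      refine ⟨1, by rw [one_mul, mul_one], ?_⟩
      rw [mul_one, he]
      exact isomAut_mem_poAut ⇑Q s'
    · have hsq' : IsSquare (simMult ⇑Q (s * T₁) : F) := by
        rw [simMult_mul ⇑Q hne, Units.val_mul, hT₁mult]
        exact isSquare_mul_of_not_isSquare hsq hc
      obtain ⟨s', ν, -, -, -, he⟩ := exists_isom_of_sq Q hQ (s * T₁) hsq'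
      refine ⟨simAut ⇑Q T₁, hT₁c, ?_⟩
      rw [← map_mul, he]
      exact isomAut_mem_poAut ⇑Q s'
  -- the centraliser covers `Inndiag / Inn`
  have hcovI : ∀ h ∈ diagAut h2 Q hQ hne k hk, ∃ cc : MulAut (Cfsg.POmega F ⇑Q),
      cc * simAut ⇑Q g₀ = simAut ⇑Q g₀ * cc ∧ h * cc ∈ Cfsg.Inn (Cfsg.POmega F ⇑Q) := by
    intro h hh
    have hT₁sq : ¬ IsSquare (simMult ⇑Q T₁ : F) := by
      rw [hT₁mult]
      exact hc
    obtain ⟨ψ, -, hψker, hψ⟩ :=
      exists_hom_diagAut_psoAut h2 Q hQ hne E hE hE0 k hk T₁ hT₁mem hT₁sq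
    obtain ⟨t, ht⟩ : ∃ t : ↥(diagAut h2 Q hQ hne k hk),
        t = ⟨simAut ⇑Q T₁, ⟨T₁, hT₁mem, rfl⟩⟩ := ⟨_, rfl⟩
    have htcoe : (t : MulAut (Cfsg.POmega F ⇑Q)) = simAut ⇑Q T₁ := by rw [ht]
    have hψt : ψ t ≠ 1 := by
      rw [ht, hψ T₁ hT₁mem, Ne, sqChar_eq_one_iff]
      exact hT₁sq
    have hkerle : φ.ker ≤ ψ.ker := by
      rw [hφker, hψker]
      intro z hz
      rw [Subgroup.mem_subgroupOf] at hz ⊢
      exact inn_le_psoAut ⇑Q hz
    obtain ⟨j, hj⟩ := exists_pow_mul_mem_ker n hn φ hφ ψ hkerle t hψt ⟨h, hh⟩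
    refine ⟨simAut ⇑Q T₁ ^ j, ?_, ?_⟩
    · have hcm : Commute (simAut ⇑Q T₁) (simAut ⇑Q g₀) := hT₁c
      exact (hcm.pow_left j)
    · have h1 : (⟨h, hh⟩ * t ^ j : ↥(diagAut h2 Q hQ hne k hk)) ∈ φ.ker := hj
      rw [hφker, Subgroup.mem_subgroupOf, Subgroup.coe_mul, SubmonoidClass.coe_pow, htcoe] at h1
      exact h1
  have hIle : Cfsg.Inn (Cfsg.POmega F ⇑Q) ≤ diagAut h2 Q hQ hne k hk :=
    inn_le_diagAut h2 Q hQ hne k hk
  refine ⟨fun y => ⟨conj_iff_of_cover _ _ hIle _ hcovI y, ?_⟩,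
    fun y => conj_iff_of_cover _ _ (poAut_le_pgoAut ⇑Q) _ hcovO y⟩
  constructor
  · rintro ⟨h, hh, e⟩
    exact ⟨h, psoAut_le_diagAut h2 Q hQ hne k hk hh, e⟩
  · intro hDc
    obtain ⟨h, hh, e⟩ := (conj_iff_of_cover _ _ hIle _ hcovI y).mpr hDc
    exact ⟨h, inn_le_psoAut ⇑Q hh, e⟩

end main

theorem card_odd_of_char {F : Type u} [Field F] [Fintype F] {p : ℕ} [Fact p.Prime] [CharP F p]
    (hp : p ≠ 2) : Odd (Fintype.card F) := by
  obtain ⟨n, -, hn⟩ := FiniteField.card F p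
  rw [hn]
  exact ((Fact.out : p.Prime).odd_of_ne_two hp).pow

/-- The statement of S2721 from the package `PkgM` alone. -/
theorem fusion_minus_of_M (hM : PkgM.{u}) {F : Type u} [Field F] [Fintype F] {p : ℕ}
    [Fact p.Prime] [CharP F p] (hp : p ≠ 2) {m : ℕ} (hm : 3 ≤ m) (a b : F)
    (hab : ∀ z₁ z₂ : F, z₁ ^ 2 + a * z₁ * z₂ + b * z₂ ^ 2 = 0 → z₁ = 0 ∧ z₂ = 0)
    (x : MulAut (Cfsg.POmega F (Cfsg.quadFormMinus m F a b)))
    (hx : x ∈ Cfsg.pgoAut F (Cfsg.quadFormMinus m F a b)) {r : ℕ} (hr : r.Prime) (hro : Odd r)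
    (hrp : r ≠ p) (hxr : orderOf x = r) :
    (∀ y : MulAut (Cfsg.POmega F (Cfsg.quadFormMinus m F a b)),
      (Cfsg.IsConjUnder (Cfsg.Inn (Cfsg.POmega F (Cfsg.quadFormMinus m F a b))) x y ↔
        Cfsg.IsConjUnder (Cfsg.inndiagPOmegaMinus m F a b) x y) ∧
      (Cfsg.IsConjUnder (Cfsg.psoAut F (Cfsg.quadFormMinus m F a b)) x y ↔
        Cfsg.IsConjUnder (Cfsg.inndiagPOmegaMinus m F a b) x y)) ∧
    (∀ y : MulAut (Cfsg.POmega F (Cfsg.quadFormMinus m F a b)),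
      Cfsg.IsConjUnder (Cfsg.poAut F (Cfsg.quadFormMinus m F a b)) x y ↔
        Cfsg.IsConjUnder (Cfsg.pgoAut F (Cfsg.quadFormMinus m F a b)) x y) := by
  have h2 : (2 : F) ≠ 0 := two_ne_zero_of_char hp
  have hrF : (r : F) ≠ 0 := prime_ne_zero_of_char hr hrp
  have hodd : Odd (Fintype.card F) := card_odd_of_char hp
  obtain ⟨E, hE, hE0⟩ := minus_ts_three (F := F) m hm a b
  obtain ⟨w, c, hc, hw⟩ := exists_norm_not_isSquare h2 a b hab
  have hP : ∀ (g : GL ((Fin m ⊕ Fin m) ⊕ Fin 2) F) (c : F), c ≠ 0 →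
      (∀ x, Cfsg.quadFormMinus m F a b
        ((g : Matrix ((Fin m ⊕ Fin m) ⊕ Fin 2) ((Fin m ⊕ Fin m) ⊕ Fin 2) F) *ᵥ x) =
        c * Cfsg.quadFormMinus m F a b x) →
      (Cfsg.PreservesSingularClassesMinus m a b
          (g : Matrix ((Fin m ⊕ Fin m) ⊕ Fin 2) ((Fin m ⊕ Fin m) ⊕ Fin 2) F) ↔
        (g : Matrix ((Fin m ⊕ Fin m) ⊕ Fin 2) ((Fin m ⊕ Fin m) ⊕ Fin 2) F).det = c ^ (m + 1)) := by
    intro g c hc hg
    exact minus_preserves_iff h2 m a b hab _ c hc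
      ((Matrix.isUnit_iff_isUnit_det _).mp (Units.isUnit g)) hg
  obtain ⟨n, hn, φ, hφ, hφker⟩ : ∃ n : ℕ, (n = 2 ∨ n = 4) ∧
      ∃ φ : ↥(Cfsg.inndiagPOmegaMinus m F a b) →* Multiplicative (ZMod n),
        Function.Surjective φ ∧
        φ.ker = (Cfsg.Inn (Cfsg.POmega F (Cfsg.quadFormMinus m F a b))).subgroupOf
          (Cfsg.inndiagPOmegaMinus m F a b) := by
    by_cases hcase : Even m ∧ Fintype.card F % 4 = 3
    · obtain ⟨φ, h1, h3⟩ := (minus_inndiag_inn hodd m hm a b hab).1 hcase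
      exact ⟨4, Or.inr rfl, φ, h1, h3⟩
    · obtain ⟨φ, h1, h3⟩ := (minus_inndiag_inn hodd m hm a b hab).2 hcase
      exact ⟨2, Or.inl rfl, φ, h1, h3⟩
  exact fusion_generic_cyc hM h2 (minusQF m F a b) (minusQF_nondegenerate m F h2 a b hab) _
    (minusQF_coe m F a b) E hE hE0 (m + 1) (minus_card m)
    (Cfsg.PreservesSingularClassesMinus m a b) hP
    (Cfsg.inndiagPOmegaMinus m F a b) rfl n hn φ hφ hφker (minusSimMat m a b c w) c hc
    (minusSimMat_quad m a b c w hw) x hx hr hro hrF hxr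

end Cfsg.Agent.Lib.Helper43.OFus
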